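import Mathlib.GroupTheory.Perm.Fin
import Mathlib.Order.ModularLattice
import Mathlib.Order.Atoms
import Mathlib.Data.Nat.Choose.Basic
import Mathlib.Algebra.BigOperators.Fin

/-!
# The Möbius function to the top of a finite lattice, and signed counts of graded chains

The alternating sum over admissible permutations of the numbers of graded chains equals the
Möbius value, up to sign.
-/

set_option autoImplicit false
set_option linter.style.haveILetI false
set_option linter.unusedSectionVars false

namespace CfsgLib.ClassK.SteinbergValue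

section MuTop

variable {α : Type*} [PartialOrder α] [OrderTop α] [Finite α]

/-- The Möbius function `μ(x, ⊤)`. -/
noncomputable def muTop : α → ℤ :=
  (wellFounded_gt (α := α)).fix fun x rec =>
    letI := Fintype.ofFinite {y : α // x < y}
    open Classical in
    (if x = ⊤ then 1 else 0) - ∑ y : {y : α // x < y}, rec y.1 y.2

theorem muTop_eq [Fintype α] [DecidableEq α] [DecidableLT α] (x : α) :
    muTop x = (if x = ⊤ then 1 else 0) - ∑ y ∈ Finset.univ.filter (x < ·), muTop y := by
  letI := Fintype.ofFinite {y : α // x < y}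
  rw [Finset.sum_subtype (Finset.univ.filter (x < ·)) (p := fun y => x < y) (by simp)]
  conv_lhs => rw [muTop, WellFounded.fix_eq]
  congr 1
  · split_ifs <;> rfl

theorem muTop_top : muTop (⊤ : α) = 1 := by
  classical
  letI := Fintype.ofFinite α
  rw [muTop_eq, if_pos rfl, Finset.filter_false_of_mem fun y _ => not_top_lt, Finset.sum_empty,
    sub_zero]

theorem sum_muTop [Fintype α] [DecidableEq α] [DecidableLE α] (x : α) :
    ∑ y ∈ Finset.univ.filter (x ≤ ·), muTop y = if x = ⊤ then 1 else 0 := by
  classical
  rw [← Finset.add_sum_erase _ _ (show x ∈ Finset.univ.filter (x ≤ ·) by simp), muTop_eq x]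
  have e : (Finset.univ.filter (x ≤ ·)).erase x = Finset.univ.filter (x < ·) := by
    ext y
    simp [lt_iff_le_and_ne, and_comm, ne_comm]
  rw [e, sub_add_cancel]

variable {β : Type*} [PartialOrder β] [OrderTop β] [Finite β]

theorem muTop_orderIso (e : α ≃o β) (x : α) : muTop (e x) = muTop x := by
  classical
  letI := Fintype.ofFinite α
  letI := Fintype.ofFinite β
  induction x using (wellFounded_gt (α := α)).induction with
  | _ x ih =>
    rw [muTop_eq, muTop_eq x]
    congr 1
    · exact if_congr (map_eq_top_iff e) rfl rfl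
    · refine (Finset.sum_equiv e.toEquiv ?_ ?_).symm
      · intro y; simp
      · intro y hy
        simp only [Finset.mem_filter, Finset.mem_univ, true_and] at hy
        exact (ih y hy).symm

/-- The Möbius function of an upper interval is the restriction. -/
theorem muTop_Ici (a : α) (x : Set.Ici a) : muTop x = muTop (x : α) := by
  classical
  letI := Fintype.ofFinite α
  induction x using (wellFounded_gt (α := Set.Ici a)).induction with
  | _ x ih =>
    rw [muTop_eq, muTop_eq (x : α)]
    congr 1
    · exact if_congr (by rw [Subtype.ext_iff]; rfl) rfl rfl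
    · refine Finset.sum_nbij (fun y => (y : α)) ?_ ?_ ?_ ?_
      · intro y hy
        simpa using hy
      · exact fun y _ z _ h => Subtype.ext h
      · intro y hy
        simp only [Finset.coe_filter, Finset.mem_univ, true_and, Set.mem_ofPred_eq] at hy
        exact ⟨⟨y, x.2.trans hy.le⟩, by simpa [← Subtype.coe_lt_coe] using hy, rfl⟩
      · intro y hy
        simp only [Finset.mem_filter, Finset.mem_univ, true_and] at hy
        exact ih y hy

end MuTop

section Weisner

variable {α : Type*} [Lattice α] [BoundedOrder α] [Fintype α] [DecidableEq α]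

/-- Weisner's theorem. -/
theorem weisner {m : α} (hm : m ≠ ⊤) :
    ∑ x ∈ Finset.univ.filter (fun x => x ⊓ m = ⊥), muTop x = 0 := by
  classical
  suffices h : ∀ z ≤ m, ∑ x ∈ Finset.univ.filter (fun x => x ⊓ m = z), muTop x = 0 from h ⊥ bot_le
  intro z
  induction z using (wellFounded_gt (α := α)).induction with
  | _ z ih =>
    intro hz
    have h1 : ∑ x ∈ Finset.univ.filter (fun x => z ≤ x), muTop x = 0 := by
      rw [sum_muTop, if_neg]
      rintro rfl
      exact hm (top_le_iff.1 hz)
    rw [← Finset.sum_fiberwise_of_maps_to (g := fun x => x ⊓ m)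
      (t := Finset.univ.filter fun w => z ≤ w ∧ w ≤ m)
      (fun x hx => by simp at hx ⊢; exact ⟨hx, hz⟩)] at h1
    rw [Finset.sum_eq_single z] at h1
    · refine Eq.trans ?_ h1
      refine Finset.sum_congr ?_ fun _ _ => rfl
      ext x
      simp only [Finset.mem_filter, Finset.mem_univ, true_and]
      exact ⟨fun h => ⟨h ▸ inf_le_left, h⟩, fun h => h.2⟩
    · intro w hw hne
      simp only [Finset.mem_filter, Finset.mem_univ, true_and] at hw
      refine Eq.trans ?_ (ih w (lt_of_le_of_ne hw.1 (Ne.symm hne)) hw.2)
      refine Finset.sum_congr ?_ fun _ _ => rfl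
      ext x
      simp only [Finset.mem_filter, Finset.mem_univ, true_and]
      exact ⟨fun h => h.2, fun h => ⟨le_trans hw.1 (h ▸ inf_le_left), h⟩⟩
    · intro h
      simp [hz] at h

/-- Weisner's theorem at a coatom: `μ(⊥, ⊤)` is minus the sum over the complements. -/
theorem muTop_bot_of_isCoatom {m : α} (hm : IsCoatom m)
    [DecidablePred fun x => IsCompl m x] :
    muTop (⊥ : α) = -∑ x ∈ Finset.univ.filter (fun x => IsCompl m x), muTop x := by
  have h := weisner hm.1
  have e : Finset.univ.filter (fun x => x ⊓ m = ⊥) =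
      insert ⊥ (Finset.univ.filter (fun x => IsCompl m x)) := by
    ext x
    simp only [Finset.mem_filter, Finset.mem_univ, true_and, Finset.mem_insert]
    constructor
    · intro hx
      rcases eq_or_ne x ⊥ with h0 | h0
      · exact Or.inl h0
      · refine Or.inr ⟨?_, ?_⟩
        · rw [disjoint_iff, inf_comm, hx]
        · rw [codisjoint_iff]
          rcases hm.le_iff.1 (le_sup_left : m ≤ m ⊔ x) with h' | h'
          · exact h'
          · have : x ≤ m := sup_eq_left.1 h'
            exact absurd ((inf_eq_left.2 this).symm.trans hx) h0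
    · rintro (rfl | hx)
      · exact bot_inf_eq m
      · exact hx.symm.inf_eq_bot
  have hnot : (⊥ : α) ∉ Finset.univ.filter (fun x => IsCompl m x) := by
    simp only [Finset.mem_filter, Finset.mem_univ, true_and]
    intro hc
    exact hm.1 (by simpa using hc.sup_eq_top)
  rw [e, Finset.sum_insert hnot] at h
  omega

end Weisner

section Chains

variable {α : Type*} [PartialOrder α] [OrderTop α] [Finite α] {r : α → ℕ}

/-- Chains from `W` to `⊤` with rank increments `μ`. -/
abbrev Chain (r : α → ℕ) {l : ℕ} (μ : Fin l → ℕ) (W : α) : Type _ :=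
  {f : Fin (l + 1) → α // f 0 = W ∧
    (∀ j : Fin l, f j.castSucc ≤ f j.succ ∧ r (f j.succ) = r (f j.castSucc) + μ j) ∧
    f (Fin.last l) = ⊤}

/-- The number of these chains. -/
noncomputable def nChain (r : α → ℕ) {l : ℕ} (μ : Fin l → ℕ) (W : α) : ℕ :=
  Nat.card (Chain r μ W)

theorem nChain_zero [DecidableEq α] (μ : Fin 0 → ℕ) (W : α) :
    nChain r μ W = if W = ⊤ then 1 else 0 := by
  split_ifs with h
  · rw [nChain, Nat.card_eq_one_iff_unique]
    refine ⟨⟨fun f g => Subtype.ext (funext fun i => ?_)⟩,
      ⟨⟨fun _ => W, rfl, fun j => j.elim0, h⟩⟩⟩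
    rw [Fin.fin_one_eq_zero i]
    exact f.2.1.trans g.2.1.symm
  · rw [nChain, Nat.card_eq_zero]
    refine Or.inl ⟨fun f => h ?_⟩
    exact f.2.1.symm.trans f.2.2.2

theorem nChain_succ [Fintype α] [DecidableEq α] [DecidableLE α] {l : ℕ} (μ : Fin (l + 1) → ℕ)
    (W : α) :
    nChain r μ W = ∑ W' ∈ Finset.univ.filter (fun W' => W ≤ W' ∧ r W' = r W + μ 0),
      nChain r (fun j => μ j.succ) W' := by
  let e : Chain r μ W ≃ Σ W' : {W' : α // W ≤ W' ∧ r W' = r W + μ 0},
      Chain r (fun j => μ j.succ) W'.1 :=
    { toFun := fun f => ⟨⟨f.1 (Fin.succ 0), by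
        have h0 := f.2.2.1 0
        rw [Fin.castSucc_zero, f.2.1] at h0
        exact h0⟩, fun i => f.1 i.succ, rfl, fun j => by
          have hj := f.2.2.1 j.succ
          rwa [← Fin.succ_castSucc] at hj, (congrArg f.1 (Fin.succ_last l)).trans f.2.2.2⟩
      invFun := fun x => ⟨Fin.cons W x.2.1, Fin.cons_zero _ _, fun j => by
          refine Fin.cases ?_ (fun j => ?_) j
          · rw [Fin.castSucc_zero, Fin.cons_zero, Fin.cons_succ, x.2.2.1]
            exact x.1.2
          · rw [← Fin.succ_castSucc, Fin.cons_succ, Fin.cons_succ]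
            exact x.2.2.2.1 j, by
          rw [← Fin.succ_last, Fin.cons_succ]
          exact x.2.2.2.2⟩
      left_inv := fun f => Subtype.ext (funext fun i => by
        refine Fin.cases ?_ (fun i => ?_) i
        · exact f.2.1.symm
        · rfl)
      right_inv := fun x => by
        obtain ⟨⟨W', hW'⟩, g, hg⟩ := x
        obtain rfl : g 0 = W' := hg.1
        rfl }
  haveI : ∀ {k : ℕ} (ν : Fin k → ℕ) (V : α), Finite (Chain r ν V) := fun ν V => Subtype.finite
  rw [nChain, Nat.card_congr e, Nat.card_sigma,
    Finset.sum_subtype (Finset.univ.filter fun W' => W ≤ W' ∧ r W' = r W + μ 0)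
      (p := fun W' => W ≤ W' ∧ r W' = r W + μ 0) (by simp)]
  rfl

/-- The composition attached to a permutation, the part over the value `0` enlarged by `a`. -/
def muPerm (a : ℕ) {m : ℕ} (κ : Equiv.Perm (Fin m)) (i : Fin m) : ℕ :=
  1 + i.val - (κ i).val + if (κ i).val = 0 then a else 0

/-- The signed sum of chain numbers. -/
noncomputable def signedChains (r : α → ℕ) (a m : ℕ) (W : α) : ℤ :=
  ∑ κ : Equiv.Perm (Fin m),
    if ∀ i : Fin m, (κ i).val ≤ 1 + i.val then
      ((Equiv.Perm.sign κ : ℤ)) * (nChain r (muPerm a κ) W : ℤ) else 0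

theorem signedChains_zero [DecidableEq α] (a : ℕ) (W : α) :
    signedChains r a 0 W = if W = ⊤ then 1 else 0 := by
  rw [signedChains, Finset.univ_unique, Finset.sum_singleton, if_pos fun i => i.elim0, nChain_zero]
  split_ifs <;> simp

theorem decompose_val_zero {m : ℕ} (e : Equiv.Perm (Fin m)) (j : Fin m) :
    (Equiv.Perm.decomposeFin.symm (0, e) j.succ).val = (e j).val + 1 := by
  rw [Equiv.Perm.decomposeFin_symm_apply_succ, Equiv.swap_self]
  rfl

theorem decompose_val_one {m : ℕ} (e : Equiv.Perm (Fin (m + 1))) (j : Fin (m + 1)) :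
    (Equiv.Perm.decomposeFin.symm (1, e) j.succ).val =
      if (e j).val = 0 then 0 else (e j).val + 1 := by
  rw [Equiv.Perm.decomposeFin_symm_apply_succ]
  split_ifs with h
  · rw [show e j = 0 from Fin.ext h, Fin.succ_zero_eq_one, Equiv.swap_apply_right]
    rfl
  · rw [Equiv.swap_apply_of_ne_of_ne (Fin.succ_ne_zero _) (fun h1 => h (by
      simpa using congrArg Fin.val h1))]
    rfl

theorem muPerm_decompose_zero {a m : ℕ} (e : Equiv.Perm (Fin m)) (j : Fin m) :
    muPerm a (Equiv.Perm.decomposeFin.symm (0, e)) j.succ = muPerm 0 e j := by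
  rw [muPerm, muPerm, decompose_val_zero, Fin.val_succ, if_neg (Nat.succ_ne_zero _), ite_self]
  omega

theorem muPerm_decompose_one {a m : ℕ} (e : Equiv.Perm (Fin (m + 1))) (j : Fin (m + 1)) :
    muPerm a (Equiv.Perm.decomposeFin.symm (1, e)) j.succ = muPerm (a + 1) e j := by
  rw [muPerm, muPerm, decompose_val_one, Fin.val_succ]
  by_cases h : (e j).val = 0
  · simp only [h, if_true]; omega
  · simp only [if_neg h, if_neg (Nat.succ_ne_zero _)]; omega

theorem admissible_zero {m : ℕ} (e : Equiv.Perm (Fin m)) :
    (∀ i : Fin (m + 1), (Equiv.Perm.decomposeFin.symm (0, e) i).val ≤ 1 + i.val) ↔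
      ∀ i : Fin m, (e i).val ≤ 1 + i.val := by
  constructor
  · intro h i
    have := h i.succ
    rw [decompose_val_zero, Fin.val_succ] at this
    omega
  · intro h i
    refine Fin.cases ?_ (fun j => ?_) i
    · simp
    · have := h j
      rw [decompose_val_zero, Fin.val_succ]
      omega

theorem admissible_one {m : ℕ} (e : Equiv.Perm (Fin (m + 1))) :
    (∀ i : Fin (m + 2), (Equiv.Perm.decomposeFin.symm (1, e) i).val ≤ 1 + i.val) ↔
      ∀ i : Fin (m + 1), (e i).val ≤ 1 + i.val := by
  constructor
  · intro h i
    have := h i.succ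
    rw [decompose_val_one, Fin.val_succ] at this
    split_ifs at this with h0 <;> omega
  · intro h i
    refine Fin.cases ?_ (fun j => ?_) i
    · simp
    · have := h j
      rw [decompose_val_one, Fin.val_succ]
      split_ifs <;> omega

variable [Fintype α] [DecidableEq α] [DecidableLE α]

theorem signed_slice (a m : ℕ) (W : α) :
    ∑ e : Equiv.Perm (Fin m),
      (if ∀ i : Fin (m + 1), (Equiv.Perm.decomposeFin.symm (0, e) i).val ≤ 1 + i.val then
        ((Equiv.Perm.sign (Equiv.Perm.decomposeFin.symm (0, e)) : ℤ)) *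
          (nChain r (muPerm a (Equiv.Perm.decomposeFin.symm (0, e))) W : ℤ) else 0) =
    ∑ W' ∈ Finset.univ.filter (fun W' => W ≤ W' ∧ r W' = r W + (a + 1)),
      signedChains r 0 m W' := by
  simp only [signedChains]
  rw [Finset.sum_comm]
  refine Finset.sum_congr rfl fun e _ => ?_
  by_cases h : ∀ i : Fin m, (e i).val ≤ 1 + i.val
  · have h0 : muPerm a (Equiv.Perm.decomposeFin.symm (0, e)) 0 = a + 1 := by
      simp [muPerm, add_comm]
    rw [if_pos ((admissible_zero e).2 h), Equiv.Perm.decomposeFin.symm_sign, if_pos rfl, one_mul,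
      nChain_succ, h0, funext (muPerm_decompose_zero (a := a) e), Nat.cast_sum, Finset.mul_sum]
    exact Finset.sum_congr rfl fun W' _ => (if_pos h).symm
  · rw [if_neg (fun hh => h ((admissible_zero e).1 hh))]
    exact (Finset.sum_eq_zero fun W' _ => if_neg h).symm

theorem signedChains_one (a : ℕ) (W : α) :
    signedChains r a 1 W =
      ∑ W' ∈ Finset.univ.filter (fun W' => W ≤ W' ∧ r W' = r W + (a + 1)),
        signedChains r 0 0 W' := by
  rw [← signed_slice]
  rw [signedChains, ← Equiv.Perm.decomposeFin.symm.sum_comp, Fintype.sum_prod_type,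
    Fintype.sum_unique]
  exact Finset.sum_congr rfl fun e _ => rfl

variable (hr : StrictMono r)
include hr

theorem signedChains_succ (a m : ℕ) (W : α) :
    signedChains r a (m + 2) W =
      (∑ W' ∈ Finset.univ.filter (fun W' => W ≤ W' ∧ r W' = r W + (a + 1)),
        signedChains r 0 (m + 1) W') - signedChains r (a + 1) (m + 1) W := by
  rw [← signed_slice]
  rw [signedChains, ← Equiv.Perm.decomposeFin.symm.sum_comp, Fintype.sum_prod_type,
    Fin.sum_univ_succ, Fin.sum_univ_succ]
  have hrest : (∑ p : Fin m, ∑ e : Equiv.Perm (Fin (m + 1)),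
      if ∀ i : Fin (m + 2), (Equiv.Perm.decomposeFin.symm (p.succ.succ, e) i).val ≤ 1 + i.val then
        ((Equiv.Perm.sign (Equiv.Perm.decomposeFin.symm (p.succ.succ, e)) : ℤ)) *
          (nChain r (muPerm a (Equiv.Perm.decomposeFin.symm (p.succ.succ, e))) W : ℤ)
      else 0) = 0 :=
    Finset.sum_eq_zero fun p _ => Finset.sum_eq_zero fun e _ => if_neg fun h => by
      have := h 0
      rw [Equiv.Perm.decomposeFin_symm_apply_zero] at this
      simp at this
  rw [hrest, add_zero, sub_eq_add_neg]
  congr 1
  rw [signedChains, ← Finset.sum_neg_distrib]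
  refine Finset.sum_congr rfl fun e _ => ?_
  rw [Fin.succ_zero_eq_one]
  by_cases h : ∀ i : Fin (m + 1), (e i).val ≤ 1 + i.val
  · have h0 : muPerm a (Equiv.Perm.decomposeFin.symm (1, e)) 0 = 0 := by
      simp [muPerm]
    have hone : Finset.univ.filter (fun W' => W ≤ W' ∧ r W' = r W + 0) = {W} := by
      ext W'
      simp only [Finset.mem_filter, Finset.mem_univ, true_and, Finset.mem_singleton, add_zero]
      constructor
      · rintro ⟨h1, h2⟩
        rcases h1.eq_or_lt with h3 | h3
        · exact h3.symm
        · exact absurd h2 (hr h3).ne'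
      · rintro rfl
        exact ⟨le_rfl, rfl⟩
    rw [if_pos ((admissible_one e).2 h), if_pos h, Equiv.Perm.decomposeFin.symm_sign,
      if_neg Fin.zero_ne_one.symm, nChain_succ, h0, hone, Finset.sum_singleton,
      funext (muPerm_decompose_one (a := a) e)]
    push_cast
    ring
  · rw [if_neg (fun hh => h ((admissible_one e).1 hh)), if_neg h, neg_zero]

/-- The signed sum of chain numbers as a partial sum of the Möbius function. -/
theorem signedChains_eq (m : ℕ) : ∀ (a : ℕ) (W : α), r W + (a + (m + 1)) = r ⊤ →
    signedChains r a (m + 1) W =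
      (-1) ^ m * ∑ W' ∈ Finset.univ.filter (fun W' => W ≤ W' ∧ r W + (a + 1) ≤ r W'), muTop W' := by
  have hle : ∀ W' : α, r W' ≤ r ⊤ := fun W' => hr.monotone le_top
  induction m with
  | zero =>
    intro a W hW
    rw [signedChains_one, pow_zero, one_mul]
    refine Finset.sum_congr ?_ fun W' hW' => ?_
    · ext W'
      simp only [Finset.mem_filter, Finset.mem_univ, true_and]
      have := hle W'
      constructor
      · rintro ⟨h1, h2⟩; exact ⟨h1, h2.ge⟩
      · rintro ⟨h1, h2⟩; exact ⟨h1, by omega⟩
    · simp only [Finset.mem_filter, Finset.mem_univ, true_and] at hW'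
      have htop : W' = ⊤ := by
        rcases (le_top : W' ≤ ⊤).eq_or_lt with h | h
        · exact h
        · have h3 := hr h
          omega
      rw [signedChains_zero, htop, if_pos rfl, muTop_top]
  | succ m ih =>
    intro a W hW
    rw [signedChains_succ hr, ih (a + 1) W (by omega)]
    have hfirst : ∀ W' ∈ Finset.univ.filter (fun W' => W ≤ W' ∧ r W' = r W + (a + 1)),
        signedChains r 0 (m + 1) W' = (-1) ^ (m + 1) * muTop W' := by
      intro W' hW'
      simp only [Finset.mem_filter, Finset.mem_univ, true_and] at hW'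
      rw [ih 0 W' (by omega)]
      have e : Finset.univ.filter (fun W'' => W' ≤ W'' ∧ r W' + (0 + 1) ≤ r W'') =
          (Finset.univ.filter (W' ≤ ·)).erase W' := by
        ext W''
        simp only [Finset.mem_filter, Finset.mem_univ, true_and, Finset.mem_erase]
        constructor
        · rintro ⟨h1, h2⟩
          exact ⟨fun h => by rw [h] at h2; omega, h1⟩
        · rintro ⟨h1, h2⟩
          exact ⟨h2, hr (lt_of_le_of_ne h2 (Ne.symm h1))⟩
      have htop : W' ≠ ⊤ := by
        rintro rfl
        omega
      rw [e, Finset.sum_erase_eq_sub (by simp), sum_muTop, if_neg htop]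
      ring
    rw [Finset.sum_congr rfl hfirst, ← Finset.mul_sum]
    have hsplit : Finset.univ.filter (fun W' => W ≤ W' ∧ r W + (a + 1) ≤ r W') =
        Finset.univ.filter (fun W' => W ≤ W' ∧ r W' = r W + (a + 1)) ∪
          Finset.univ.filter (fun W' => W ≤ W' ∧ r W + (a + 1 + 1) ≤ r W') := by
      ext W'
      simp only [Finset.mem_filter, Finset.mem_univ, true_and, Finset.mem_union]
      constructor
      · rintro ⟨h1, h2⟩
        rcases h2.eq_or_lt with h3 | h3
        · exact Or.inl ⟨h1, h3.symm⟩
        · exact Or.inr ⟨h1, by omega⟩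
      · rintro (⟨h1, h2⟩ | ⟨h1, h2⟩) <;> exact ⟨h1, by omega⟩
    rw [hsplit, Finset.sum_union]
    · ring
    · refine Finset.disjoint_left.2 fun W' h1 h2 => ?_
      simp only [Finset.mem_filter, Finset.mem_univ, true_and] at h1 h2
      omega

/-- The signed count of all graded chains from `⊥` is the Möbius number up to sign. -/
theorem signedChains_muTop {m : ℕ} (W : α) (hW : r W + m = r ⊤) :
    signedChains r 0 m W = (-1) ^ m * muTop W := by
  cases m with
  | zero =>
    have htop : W = ⊤ := by
      rcases (le_top : W ≤ ⊤).eq_or_lt with h | h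
      · exact h
      · have := hr h
        omega
    rw [signedChains_zero, htop, if_pos rfl, muTop_top, pow_zero, one_mul]
  | succ m =>
    rw [signedChains_eq hr m 0 W (by omega)]
    have e : Finset.univ.filter (fun W'' => W ≤ W'' ∧ r W + (0 + 1) ≤ r W'') =
        (Finset.univ.filter (W ≤ ·)).erase W := by
      ext W''
      simp only [Finset.mem_filter, Finset.mem_univ, true_and, Finset.mem_erase]
      constructor
      · rintro ⟨h1, h2⟩
        exact ⟨fun h => by rw [h] at h2; omega, h1⟩
      · rintro ⟨h1, h2⟩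
        exact ⟨h2, hr (lt_of_le_of_ne h2 (Ne.symm h1))⟩
    have htop : W ≠ ⊤ := by
      rintro rfl
      omega
    rw [e, Finset.sum_erase_eq_sub (by simp), sum_muTop, if_neg htop]
    ring

end Chains

end CfsgLib.ClassK.SteinbergValue
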