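import Cfsg.Agent.Lib.ClassK.CompLabel
import Cfsg.Agent.Lib.ClassK.SteinbergValue.MuTop
import Mathlib.Algebra.Module.Submodule.Invariant
import Mathlib.LinearAlgebra.Matrix.ToLin
import Mathlib.LinearAlgebra.FiniteDimensional.Basic
import Mathlib.LinearAlgebra.Dimension.Constructions

/-!
# Fixed cosets of parabolic subgroups of `GLₙ` and invariant flags
-/

set_option autoImplicit false
set_option linter.style.haveILetI false
set_option linter.unusedSectionVars false

open Cfsg Matrix
open scoped MatrixGroups

namespace CfsgLib.ClassK.SteinbergValue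

variable {n : ℕ} {F : Type*} [Field F]

/-- The span of the first `s` coordinate vectors. -/
def initSeg (n : ℕ) (F : Type*) [Field F] (s : ℕ) : Submodule F (Fin n → F) :=
  Submodule.pi {i : Fin n | s ≤ i.val} fun _ => ⊥

theorem mem_initSeg {s : ℕ} {v : Fin n → F} :
    v ∈ initSeg n F s ↔ ∀ i : Fin n, s ≤ i.val → v i = 0 := by
  simp [initSeg, Submodule.mem_pi]

theorem single_mem_initSeg {s : ℕ} {i : Fin n} (h : i.val < s) :
    Pi.single i (1 : F) ∈ initSeg n F s :=
  mem_initSeg.2 fun j hj => Pi.single_eq_of_ne (fun e => by rw [e] at hj; omega) _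

theorem finrank_initSeg {s : ℕ} (hs : s ≤ n) : Module.finrank F (initSeg n F s) = s := by
  let e : initSeg n F s ≃ₗ[F] (Fin s → F) :=
    { toFun := fun v i => (v : Fin n → F) (Fin.castLE hs i)
      map_add' := fun _ _ => rfl
      map_smul' := fun _ _ => rfl
      invFun := fun w => ⟨fun i => if h : i.val < s then w ⟨i.val, h⟩ else 0,
        mem_initSeg.2 fun i hi => dif_neg (not_lt.2 hi)⟩
      left_inv := fun v => Subtype.ext (funext fun i => by
        change (if h : i.val < s then _ else _) = _
        split_ifs with h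
        · rfl
        · exact (mem_initSeg.1 v.2 i (not_lt.1 h)).symm)
      right_inv := fun w => funext fun i => by
        change (if h : (Fin.castLE hs i).val < s then _ else _) = _
        rw [dif_pos (by simp)]
        rfl }
  rw [e.finrank_eq, Module.finrank_fin_fun]

/-- The partial sums of a composition. -/
def psum {l : ℕ} (μ : Fin l → ℕ) (k : ℕ) : ℕ :=
  ∑ i ∈ Finset.univ.filter (fun i : Fin l => i.val < k), μ i

theorem psum_succ {l : ℕ} (μ : Fin l → ℕ) (j : Fin l) :
    psum μ (j.val + 1) = psum μ j.val + μ j := by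
  rw [psum, psum, add_comm _ (μ j), ← Finset.sum_insert (f := μ) (a := j)
    (s := Finset.univ.filter fun i : Fin l => i.val < j.val) (by simp)]
  refine Finset.sum_congr ?_ fun _ _ => rfl
  ext i
  simp [Fin.ext_iff]
  omega

theorem psum_zero {l : ℕ} (μ : Fin l → ℕ) : psum μ 0 = 0 := by simp [psum]

theorem psum_last {l : ℕ} (μ : Fin l → ℕ) : psum μ l = ∑ i, μ i := by
  rw [psum, Finset.filter_true_of_mem fun i _ => i.isLt]

theorem psum_le {l : ℕ} (μ : Fin l → ℕ) (k : ℕ) : psum μ k ≤ ∑ i, μ i :=
  Finset.sum_le_sum_of_subset (Finset.subset_univ _)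

theorem psum_mono {l : ℕ} (μ : Fin l → ℕ) : Monotone (psum μ) := fun a b h =>
  Finset.sum_le_sum_of_subset fun i hi => by
    simp only [Finset.mem_filter, Finset.mem_univ, true_and] at hi ⊢
    omega

/-- The label is below `k` exactly on the first `psum μ k` positions. -/
theorem compLabel_lt_iff {μ : Fin n → ℕ} (hμ : ∑ i, μ i = n) (i : Fin n) {k : ℕ} :
    compLabel μ i < k ↔ i.val < psum μ k := by
  obtain ⟨h1, h2⟩ := (Comp.compLabel_eq_iff μ i ⟨_, Comp.compLabel_lt hμ i⟩).1 rfl
  have hsum : ∀ b : Fin n, (∑ x ∈ Finset.univ.filter (fun x : Fin n => x < b), μ x) = psum μ b.val :=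
    fun b => rfl
  rw [hsum] at h1 h2
  rw [← psum_succ μ ⟨compLabel μ i, Comp.compLabel_lt hμ i⟩] at h2
  simp only at h1 h2
  constructor
  · exact fun h => lt_of_lt_of_le h2 (psum_mono μ h)
  · intro h
    by_contra hc
    exact absurd (psum_mono μ (not_lt.1 hc)) (by omega)

/-- Block triangular matrices are those preserving the standard flag. -/
theorem blockTriangular_iff {μ : Fin n → ℕ} (hμ : ∑ i, μ i = n) (M : Matrix (Fin n) (Fin n) F) :
    M.BlockTriangular (compLabel μ) ↔
      ∀ k : ℕ, ∀ v ∈ initSeg n F (psum μ k), M *ᵥ v ∈ initSeg n F (psum μ k) := by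
  constructor
  · intro hM k v hv
    refine mem_initSeg.2 fun i hi => ?_
    change ∑ j, M i j * v j = 0
    refine Finset.sum_eq_zero fun j _ => ?_
    by_cases hj : psum μ k ≤ j.val
    · rw [mem_initSeg.1 hv j hj, mul_zero]
    · have hjk := (compLabel_lt_iff hμ j).2 (not_le.1 hj)
      have hik : ¬ compLabel μ i < k := fun h => by
        have := (compLabel_lt_iff hμ i).1 h
        omega
      rw [hM (lt_of_lt_of_le hjk (not_lt.1 hik)), zero_mul]
  · intro h i j hij
    have hk : j.val < psum μ (compLabel μ j + 1) := (compLabel_lt_iff hμ j).1 (Nat.lt_succ_self _)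
    have := mem_initSeg.1 (h _ _ (single_mem_initSeg hk)) i (by
      by_contra hc
      have := (compLabel_lt_iff hμ i (k := compLabel μ j + 1)).2 (not_le.1 hc)
      omega)
    rw [Matrix.mulVec_single_one] at this
    exact this

theorem map_initSeg (M : Matrix (Fin n) (Fin n) F) (s : ℕ) :
    (initSeg n F s).map M.mulVecLin =
      Submodule.span F ((fun i => M *ᵥ Pi.single i (1 : F)) '' {i : Fin n | i.val < s}) := by
  apply le_antisymm
  · rintro _ ⟨v, hv, rfl⟩
    rw [pi_eq_sum_univ' v, map_sum]
    refine Submodule.sum_mem _ fun i _ => ?_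
    rw [map_smul]
    by_cases hi : i.val < s
    · exact Submodule.smul_mem _ _ (Submodule.subset_span ⟨i, hi, rfl⟩)
    · rw [mem_initSeg.1 hv i (not_lt.1 hi), zero_smul]
      exact Submodule.zero_mem _
  · rw [Submodule.span_le]
    rintro _ ⟨i, hi, rfl⟩
    exact ⟨_, single_mem_initSeg hi, rfl⟩

/-- A sequence adapted to an increasing sequence of subspaces. -/
theorem exists_adapted {V : Type*} [AddCommGroup V] [Module F V] [FiniteDimensional F V]
    (W : ℕ → Submodule F V) (d : ℕ → ℕ) (hW0 : W 0 = ⊥) (hd0 : d 0 = 0)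
    (hdim : ∀ k, Module.finrank F (W k) = d k) :
    ∀ k, (∀ j < k, W j ≤ W (j + 1)) →
      ∃ v : ℕ → V, ∀ j ≤ k, Submodule.span F (v '' {i | i < d j}) = W j := by
  intro k
  induction k with
  | zero =>
    intro _
    refine ⟨fun _ => 0, fun j hj => ?_⟩
    rw [Nat.le_zero.1 hj, hW0, hd0]
    simp
  | succ k ih =>
    intro hmono
    obtain ⟨v, hv⟩ := ih fun j hj => hmono j (by omega)
    have hle : W k ≤ W (k + 1) := hmono k (by omega)
    have hdk : d k ≤ d (k + 1) := by
      rw [← hdim, ← hdim]
      exact Submodule.finrank_mono hle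
    have hd : ∀ j ≤ k, d j ≤ d k := by
      intro j hj
      rw [← hdim, ← hdim]
      refine Submodule.finrank_mono ?_
      rw [← hv j hj, ← hv k le_rfl]
      refine Submodule.span_le.2 ?_
      rintro _ ⟨i, hi, rfl⟩
      by_cases hik : i < d k
      · exact Submodule.subset_span ⟨i, hik, rfl⟩
      · exfalso
        have hle' : ∀ l, j + l ≤ k → d j ≤ d (j + l) := by
          intro l
          induction l with
          | zero => intro _; rfl
          | succ l ihl =>
            intro hl
            refine (ihl (by omega)).trans ?_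
            rw [← hdim, ← hdim]
            exact Submodule.finrank_mono (hmono _ (by omega))
        have := hle' (k - j) (by omega)
        rw [show j + (k - j) = k by omega] at this
        simp only [Set.mem_ofPred_eq] at hi
        omega
    obtain ⟨C, hC⟩ := Submodule.exists_isCompl ((W k).comap (W (k + 1)).subtype)
    have hCdim : Module.finrank F C + d k = d (k + 1) := by
      have h1 := Submodule.finrank_add_eq_of_isCompl hC
      rw [(Submodule.comapSubtypeEquivOfLe hle).finrank_eq, hdim, hdim] at h1
      omega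
    let b := Module.finBasisOfFinrankEq F C (show Module.finrank F C = d (k + 1) - d k by omega)
    let v' : ℕ → V := fun i => if h : d k ≤ i ∧ i - d k < d (k + 1) - d k then
      ((b ⟨i - d k, h.2⟩ : W (k + 1)) : V) else v i
    have hold : ∀ j ≤ k, v' '' {i | i < d j} = v '' {i | i < d j} := fun j hj =>
      Set.image_congr fun i hi => dif_neg fun h => by
        have := hd j hj
        simp only [Set.mem_ofPred_eq] at hi
        omega
    refine ⟨v', fun j hj => ?_⟩
    rcases Nat.lt_or_ge j (k + 1) with hjk | hjk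
    · rw [hold j (by omega)]
      exact hv j (by omega)
    · rw [show j = k + 1 by omega]
      apply le_antisymm
      · rw [Submodule.span_le]
        rintro _ ⟨i, hi, rfl⟩
        simp only [Set.mem_ofPred_eq] at hi
        by_cases h : d k ≤ i
        · change (if _ : _ then _ else _) ∈ _
          rw [dif_pos ⟨h, by omega⟩]
          exact Subtype.coe_prop _
        · change (if _ : _ then _ else _) ∈ _
          rw [dif_neg fun hh => h hh.1]
          exact hle (by rw [← hv k le_rfl]; exact Submodule.subset_span ⟨i, by simp; omega, rfl⟩)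
      · intro w hw
        have hsup : (⟨w, hw⟩ : W (k + 1)) ∈ (W k).comap (W (k + 1)).subtype ⊔ C := by
          rw [hC.sup_eq_top]; exact Submodule.mem_top
        obtain ⟨a, ha, c, hc, hac⟩ := Submodule.mem_sup.1 hsup
        have hw' : w = (a : V) + (c : V) := (congrArg Subtype.val hac).symm
        rw [hw']
        refine Submodule.add_mem _ ?_ ?_
        · have ha' : (a : V) ∈ W k := ha
          rw [← hv k le_rfl, ← hold k le_rfl] at ha'
          refine Submodule.span_mono (Set.image_mono fun i hi => ?_) ha'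
          simp only [Set.mem_ofPred_eq] at hi ⊢
          omega
        · have hc' : (⟨c, hc⟩ : C) = ∑ i, b.repr ⟨c, hc⟩ i • b i := (b.sum_repr _).symm
          have := congrArg (fun z : C => ((z : W (k + 1)) : V)) hc'
          simp only [AddSubmonoidClass.coe_finsetSum, Submodule.coe_smul] at this
          rw [this]
          refine Submodule.sum_mem _ fun i _ => Submodule.smul_mem _ _
            (Submodule.subset_span ⟨d k + i.val, ?_, ?_⟩)
          · simp only [Set.mem_ofPred_eq]; omega
          · change (if _ : _ then _ else _) = _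
            rw [dif_pos ⟨by omega, by omega⟩]
            simp

variable [Fintype F]

/-- The invariant subspaces of a matrix. -/
abbrev InvSub (x : Matrix (Fin n) (Fin n) F) := ↥(Module.End.invtSubmodule x.mulVecLin)

/-- Their dimension. -/
noncomputable def invRank (x : Matrix (Fin n) (Fin n) F) (W : InvSub x) : ℕ :=
  Module.finrank F (W : Submodule F (Fin n → F))

theorem invRank_strictMono (x : Matrix (Fin n) (Fin n) F) : StrictMono (invRank x) :=
  fun _ _ h => Submodule.finrank_lt_finrank_of_lt h

instance (x : Matrix (Fin n) (Fin n) F) : Finite (InvSub x) := Subtype.finite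

/-- The permutation character on the cosets of a parabolic subgroup counts invariant flags. -/
theorem card_fixedBy_parabolic (x : GL (Fin n) F) {μ : Fin n → ℕ} (hμ : ∑ i, μ i = n) :
    Nat.card (MulAction.fixedBy (GL (Fin n) F ⧸ parabolicGL n F μ) x) =
      nChain (invRank (x : Matrix (Fin n) (Fin n) F)) μ
        (⊥ : InvSub (x : Matrix (Fin n) (Fin n) F)) := by
  classical
  have hmapcomp : ∀ (g h : GL (Fin n) F) (W : Submodule F (Fin n → F)),
      W.map ((g * h : GL (Fin n) F) : Matrix (Fin n) (Fin n) F).mulVecLin =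
        (W.map (h : Matrix (Fin n) (Fin n) F).mulVecLin).map
          (g : Matrix (Fin n) (Fin n) F).mulVecLin := fun g h W => by
    rw [Units.val_mul, Matrix.mulVecLin_mul, Submodule.map_comp]
  have hinj : ∀ g : GL (Fin n) F, Function.Injective (g : Matrix (Fin n) (Fin n) F).mulVecLin :=
    fun g => Matrix.mulVec_injective_of_isUnit g.isUnit
  have hP : ∀ p : GL (Fin n) F, p ∈ parabolicGL n F μ ↔ ∀ k : Fin (n + 1),
      (initSeg n F (psum μ k.val)).map (p : Matrix (Fin n) (Fin n) F).mulVecLin =
        initSeg n F (psum μ k.val) := by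
    intro p
    change (p : Matrix (Fin n) (Fin n) F).BlockTriangular (compLabel μ) ↔ _
    rw [blockTriangular_iff hμ]
    constructor
    · intro h k
      refine Submodule.eq_of_le_of_finrank_eq (Submodule.map_le_iff_le_comap.2 fun v hv => h _ v hv) ?_
      exact (Submodule.equivMapOfInjective _ (hinj p) _).finrank_eq.symm
    · intro h k v hv
      rcases Nat.lt_or_ge k (n + 1) with hk | hk
      · have := h ⟨k, hk⟩
        simp only at this
        exact this ▸ Submodule.mem_map_of_mem hv
      · refine mem_initSeg.2 fun i hi => ?_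
        have h1 : psum μ n ≤ psum μ k := psum_mono μ (by omega)
        rw [psum_last, hμ] at h1
        omega
  have hrk : ∀ (g : GL (Fin n) F) (k : ℕ), Module.finrank F
      ((initSeg n F (psum μ k)).map (g : Matrix (Fin n) (Fin n) F).mulVecLin) = psum μ k :=
    fun g k => by
      rw [← (Submodule.equivMapOfInjective _ (hinj g) _).finrank_eq, finrank_initSeg]
      exact (psum_le μ k).trans hμ.le
  -- the flag data of a chain
  have hdims : ∀ (f : Chain (invRank (x : Matrix (Fin n) (Fin n) F)) μ ⊥) (k : ℕ) (hk : k < n + 1),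
      invRank (x : Matrix (Fin n) (Fin n) F) (f.1 ⟨k, hk⟩) = psum μ k := by
    intro f k
    induction k with
    | zero =>
      intro hk
      rw [psum_zero, show (⟨0, hk⟩ : Fin (n + 1)) = 0 from rfl, f.2.1]
      exact finrank_bot F (Fin n → F)
    | succ k ih =>
      intro hk
      rw [psum_succ μ ⟨k, by omega⟩]
      exact (f.2.2.1 ⟨k, by omega⟩).2.trans (congrArg (· + μ ⟨k, _⟩) (ih (by omega)))
  have hex : ∀ f : Chain (invRank (x : Matrix (Fin n) (Fin n) F)) μ ⊥, ∃ g : GL (Fin n) F,
      ∀ k : Fin (n + 1), (initSeg n F (psum μ k.val)).map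
        (g : Matrix (Fin n) (Fin n) F).mulVecLin = ((f.1 k : _) : Submodule F (Fin n → F)) := by
    intro f
    let W : ℕ → Submodule F (Fin n → F) := fun k =>
      ((f.1 ⟨min k n, by omega⟩ : _) : Submodule F (Fin n → F))
    have hd : ∀ k, Module.finrank F (W k) = psum μ (min k n) := fun k => hdims f _ _
    have hmono : ∀ j < n, W j ≤ W (j + 1) := by
      intro j hj
      have h := (f.2.2.1 ⟨j, hj⟩).1
      have e1 : (⟨min j n, by omega⟩ : Fin (n + 1)) = Fin.castSucc ⟨j, hj⟩ :=
        Fin.ext (min_eq_left hj.le)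
      have e2 : (⟨min (j + 1) n, by omega⟩ : Fin (n + 1)) = Fin.succ ⟨j, hj⟩ :=
        Fin.ext (min_eq_left hj)
      change (f.1 ⟨min j n, _⟩ : Submodule F (Fin n → F)) ≤
        ((f.1 ⟨min (j + 1) n, _⟩ : _) : Submodule F (Fin n → F))
      rw [e1, e2]
      exact h
    obtain ⟨v, hv⟩ := exists_adapted W (fun k => psum μ (min k n))
      (by
        change ((f.1 ⟨min 0 n, _⟩ : _) : Submodule F (Fin n → F)) = ⊥
        rw [show (⟨min 0 n, by omega⟩ : Fin (n + 1)) = 0 from Fin.ext (by simp), f.2.1]
        rfl)
      (by simp [psum_zero]) hd n hmono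
    let M : Matrix (Fin n) (Fin n) F := Matrix.of fun i j => v j.val i
    have hcol : ∀ j : Fin n, M *ᵥ Pi.single j (1 : F) = v j.val := fun j => by
      rw [Matrix.mulVec_single_one]; rfl
    have himg : ∀ k, k ≤ n → (initSeg n F (psum μ k)).map M.mulVecLin = W k := by
      intro k hk
      rw [map_initSeg, ← hv k hk, min_eq_left hk]
      congr 1
      ext w
      simp only [Set.mem_image, Set.mem_ofPred_eq, hcol]
      constructor
      · rintro ⟨i, hi, rfl⟩; exact ⟨i.val, hi, rfl⟩
      · rintro ⟨i, hi, rfl⟩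
        exact ⟨⟨i, lt_of_lt_of_le hi ((psum_le μ k).trans hμ.le)⟩, hi, rfl⟩
    have htop : W n = ⊤ := by
      change ((f.1 ⟨min n n, _⟩ : _) : Submodule F (Fin n → F)) = ⊤
      rw [show (⟨min n n, by omega⟩ : Fin (n + 1)) = Fin.last n from Fin.ext (by simp), f.2.2.2]
      rfl
    have hsurj : Function.Surjective M.mulVecLin := by
      rw [← LinearMap.range_eq_top, eq_top_iff, ← htop, ← himg n le_rfl]
      exact LinearMap.map_le_range
    have hunit : IsUnit M :=
      Matrix.mulVec_surjective_iff_isUnit.1 hsurj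
    refine ⟨hunit.unit, fun k => ?_⟩
    rw [IsUnit.unit_spec, himg k.val (Nat.lt_succ_iff.1 k.isLt)]
    exact congrArg (fun z => ((f.1 z : _) : Submodule F (Fin n → F)))
      (Fin.ext (min_eq_left (Nat.lt_succ_iff.1 k.isLt)))
  choose gf hgf using hex
  have hfixed : ∀ g : GL (Fin n) F,
      ((QuotientGroup.mk g : GL (Fin n) F ⧸ parabolicGL n F μ) ∈
        MulAction.fixedBy (GL (Fin n) F ⧸ parabolicGL n F μ) x) ↔
      ∀ k : Fin (n + 1), ((initSeg n F (psum μ k.val)).map
        (g : Matrix (Fin n) (Fin n) F).mulVecLin).map (x : Matrix (Fin n) (Fin n) F).mulVecLin =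
          (initSeg n F (psum μ k.val)).map (g : Matrix (Fin n) (Fin n) F).mulVecLin := by
    intro g
    rw [MulAction.mem_fixedBy, eq_comm, MulAction.Quotient.smul_mk, smul_eq_mul, QuotientGroup.eq,
      hP]
    refine forall_congr' fun k => ?_
    rw [← hmapcomp]
    constructor
    · intro h
      conv_rhs => rw [← h, ← hmapcomp, mul_inv_cancel_left]
    · intro h
      rw [hmapcomp, h, ← hmapcomp, inv_mul_cancel]
      simp
  let Φ : Chain (invRank (x : Matrix (Fin n) (Fin n) F)) μ ⊥ →
      MulAction.fixedBy (GL (Fin n) F ⧸ parabolicGL n F μ) x := fun f =>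
    ⟨QuotientGroup.mk (gf f), (hfixed _).2 fun k => by
      rw [hgf f k]
      refine Submodule.eq_of_le_of_finrank_eq
        ((Module.End.mem_invtSubmodule_iff_map_le _).1 (f.1 k).2) ?_
      exact (Submodule.equivMapOfInjective _ (hinj x) _).finrank_eq.symm⟩
  refine (Nat.card_eq_of_bijective Φ ⟨fun f f' h => ?_, fun c => ?_⟩).symm
  · have h' := QuotientGroup.eq.1 (congrArg Subtype.val h)
    refine Subtype.ext (funext fun k => Subtype.ext ?_)
    rw [← hgf f k, ← hgf f' k]
    conv_lhs => rw [← (hP _).1 h' k]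
    rw [← hmapcomp, mul_inv_cancel_left]
  · obtain ⟨g, hg⟩ := QuotientGroup.mk_surjective c.1
    have hgfix := (hfixed g).1 (hg ▸ c.2)
    let f : Fin (n + 1) → InvSub (x : Matrix (Fin n) (Fin n) F) := fun k =>
      ⟨(initSeg n F (psum μ k.val)).map (g : Matrix (Fin n) (Fin n) F).mulVecLin,
        (Module.End.mem_invtSubmodule_iff_map_le _).2 (hgfix k).le⟩
    have hf0 : f 0 = ⊥ := Subtype.ext <| Submodule.finrank_eq_zero.1 (by
      rw [show ((f 0 : _) : Submodule F (Fin n → F)) = _ from rfl, hrk]
      exact psum_zero μ)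
    have hfl : f (Fin.last n) = ⊤ := Subtype.ext <| Submodule.eq_top_of_finrank_eq (by
      rw [show ((f (Fin.last n) : _) : Submodule F (Fin n → F)) = _ from rfl, hrk,
        Module.finrank_fin_fun]
      simp [psum_last, hμ])
    have hstep : ∀ j : Fin n, f j.castSucc ≤ f j.succ ∧
        invRank (x : Matrix (Fin n) (Fin n) F) (f j.succ) =
          invRank (x : Matrix (Fin n) (Fin n) F) (f j.castSucc) + μ j := fun j => by
      refine ⟨Submodule.map_mono fun v hv => ?_, ?_⟩
      · refine mem_initSeg.2 fun i hi => mem_initSeg.1 hv i ?_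
        exact le_trans (psum_mono μ (by simp)) hi
      · change Module.finrank F _ = Module.finrank F _ + μ j
        rw [hrk, hrk]
        exact psum_succ μ j
    refine ⟨⟨f, hf0, hstep, hfl⟩, Subtype.ext (Eq.trans ?_ hg)⟩
    refine QuotientGroup.eq.2 ((hP _).2 fun k => ?_)
    have hk : (initSeg n F (psum μ k.val)).map (g : Matrix (Fin n) (Fin n) F).mulVecLin =
        (initSeg n F (psum μ k.val)).map
          (gf ⟨f, hf0, hstep, hfl⟩ : Matrix (Fin n) (Fin n) F).mulVecLin :=
      (hgf ⟨f, hf0, hstep, hfl⟩ k).symm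
    rw [hmapcomp, hk, ← hmapcomp, inv_mul_cancel]
    simp

end CfsgLib.ClassK.SteinbergValue
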