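import Cfsg.Agent.Lib.ClassK.SteinbergValue.MuTop
import Mathlib.LinearAlgebra.Charpoly.Basic
import Mathlib.LinearAlgebra.Charpoly.ToMatrix
import Mathlib.LinearAlgebra.Eigenspace.Zero
import Mathlib.RingTheory.SimpleModule.Basic
import Mathlib.RingTheory.AdjoinRoot
import Mathlib.LinearAlgebra.Projection
import Mathlib.Algebra.Module.Torsion.Basic
import Mathlib.Algebra.Polynomial.Module.AEval
import Mathlib.FieldTheory.Minpoly.Field
import Mathlib.FieldTheory.Finite.Basic

/-!
# The Möbius number of the invariant subspaces of a semisimple linear map over a finite field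
-/

set_option autoImplicit false
set_option linter.style.haveILetI false
set_option linter.unusedSectionVars false

open Polynomial

namespace CfsgLib.ClassK.SteinbergValue

variable {F : Type*} [Field F] [Fintype F] [DecidableEq F]

/-- The expected Möbius number for a multiset of irreducible polynomials. -/
noncomputable def polyValue (q : ℕ) (s : Multiset F[X]) : ℤ :=
  ∏ g ∈ s.toFinset, (-1) ^ s.count g * (q : ℤ) ^ (g.natDegree * (s.count g).choose 2)

theorem polyValue_cons (q : ℕ) (f : F[X]) (s : Multiset F[X]) :
    polyValue q (f ::ₘ s) = -((q : ℤ) ^ (f.natDegree * s.count f)) * polyValue q s := by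
  classical
  have key : ∀ t : Multiset F[X], t.toFinset ⊆ insert f s.toFinset →
      polyValue q t = ∏ g ∈ insert f s.toFinset,
        (-1) ^ t.count g * (q : ℤ) ^ (g.natDegree * (t.count g).choose 2) := by
    intro t ht
    refine Finset.prod_subset ht fun g _ hg => ?_
    rw [Multiset.count_eq_zero.2 (fun h => hg (Multiset.mem_toFinset.2 h))]
    simp
  rw [key _ (by rw [Multiset.toFinset_cons]), key s (Finset.subset_insert _ _)]
  rw [← Finset.mul_prod_erase _ _ (Finset.mem_insert_self f s.toFinset),
    ← Finset.mul_prod_erase _ _ (Finset.mem_insert_self f s.toFinset)]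
  rw [Finset.prod_congr rfl fun g hg => by
    rw [Multiset.count_cons_of_ne (Finset.ne_of_mem_erase hg)]]
  rw [Multiset.count_cons_self, pow_succ, Nat.choose_succ_succ', Nat.choose_one_right, mul_add,
    pow_add]
  ring

/-- Multiplication by `X`. -/
noncomputable def xMul (M : Type*) [AddCommGroup M] [Module F M] [Module F[X] M]
    [IsScalarTower F F[X] M] : Module.End F M :=
  Algebra.lsmul F F M (X : F[X])

theorem aeval_xMul {M : Type*} [AddCommGroup M] [Module F M] [Module F[X] M]
    [IsScalarTower F F[X] M] (p : F[X]) (m : M) : aeval (xMul (F := F) M) p m = p • m := by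
  rw [xMul, aeval_algHom_apply, aeval_X_left_apply]
  rfl

theorem finrank_quotient_span {f : F[X]} (hf : f ≠ 0) :
    Module.finrank F (F[X] ⧸ Ideal.span {f}) = f.natDegree :=
  (PowerBasis.finrank (AdjoinRoot.powerBasis hf)).trans (AdjoinRoot.powerBasis_dim hf)

/-- Linear maps out of a cyclic module. -/
noncomputable def quotientHomEquiv {N : Type*} [AddCommGroup N] [Module F[X] N] (f : F[X]) :
    ((F[X] ⧸ Ideal.span {f}) →ₗ[F[X]] N) ≃ Submodule.torsionBy F[X] N f where
  toFun φ := ⟨φ (Submodule.Quotient.mk 1), by
    rw [Submodule.mem_torsionBy_iff, ← map_smul, ← Submodule.Quotient.mk_smul, smul_eq_mul, mul_one,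
      (Submodule.Quotient.mk_eq_zero _).2 (Ideal.mem_span_singleton_self f), map_zero]⟩
  invFun m := Submodule.liftQ (Ideal.span {f}) (LinearMap.toSpanSingleton F[X] N m.1) (by
    rw [Ideal.span_le, Set.singleton_subset_iff]
    exact m.2)
  left_inv φ := by
    refine LinearMap.ext fun z => ?_
    obtain ⟨r, rfl⟩ := Submodule.Quotient.mk_surjective _ z
    rw [Submodule.liftQ_apply, LinearMap.toSpanSingleton_apply, ← map_smul,
      ← Submodule.Quotient.mk_smul, smul_eq_mul, mul_one]
  right_inv m := Subtype.ext (by
    change Submodule.liftQ _ _ _ (Submodule.Quotient.mk 1) = _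
    rw [Submodule.liftQ_apply, LinearMap.toSpanSingleton_apply, one_smul])

variable {q : ℕ} (hq : Fintype.card F = q)

include hq in
/-- The data of a simple module. -/
theorem simple_data (S : Type*) [AddCommGroup S] [Module F S] [Module F[X] S]
    [IsScalarTower F F[X] S] [FiniteDimensional F S] [IsSimpleModule F[X] S] :
    ∃ f : F[X], f.Monic ∧ Irreducible f ∧ Nonempty (S ≃ₗ[F[X]] F[X] ⧸ Ideal.span {f}) ∧
      (xMul (F := F) S).charpoly = f ∧
      ∀ g : F[X], g.Monic → Irreducible g →
        Nat.card (Submodule.torsionBy F[X] S g) = q ^ (g.natDegree * if g = f then 1 else 0) := by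
  classical
  obtain ⟨I, hI, ⟨e⟩⟩ := isSimpleModule_iff_quot_maximal.1 (inferInstance : IsSimpleModule F[X] S)
  obtain ⟨g0, rfl⟩ := Submodule.IsPrincipal.principal I
  rw [Ideal.submodule_span_eq] at hI e
  have hg0 : g0 ≠ 0 := by
    rintro rfl
    haveI : Module.Finite F (F[X] ⧸ Ideal.span ({0} : Set F[X])) :=
      Module.Finite.equiv (e.restrictScalars F)
    haveI : Module.Finite F F[X] := Module.Finite.equiv
      ((Submodule.quotEquivOfEqBot _ (Ideal.span_singleton_eq_bot.2 rfl)).restrictScalars F)
    exact Polynomial.not_finite this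
  set f := normalize g0 with hfdef
  have hmon : f.Monic := Polynomial.monic_normalize hg0
  have hspan : Ideal.span ({g0} : Set F[X]) = Ideal.span {f} :=
    Ideal.span_singleton_eq_span_singleton.2 (associated_normalize g0)
  have hI' : (Ideal.span ({f} : Set F[X])).IsMaximal := hspan ▸ hI
  have hirr : Irreducible f :=
    ((Ideal.span_singleton_prime hmon.ne_zero).1 hI'.isPrime).irreducible
  let e' : S ≃ₗ[F[X]] F[X] ⧸ Ideal.span {f} := e.trans (Submodule.quotEquivOfEq _ _ hspan)
  have hdim : Module.finrank F S = f.natDegree :=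
    (e'.restrictScalars F).finrank_eq.trans (finrank_quotient_span hmon.ne_zero)
  have hann : ∀ z : S, f • z = 0 := fun z => e'.injective (by
    rw [map_smul, map_zero]
    obtain ⟨r, hr⟩ := Submodule.Quotient.mk_surjective _ (e' z)
    rw [← hr, ← Submodule.Quotient.mk_smul, Submodule.Quotient.mk_eq_zero]
    exact Ideal.mem_span_singleton.2 (dvd_mul_right f r))
  haveI : Nontrivial S := IsSimpleModule.nontrivial F[X] S
  have hmin : minpoly F (xMul (F := F) S) = f := by
    refine (minpoly.eq_of_irreducible_of_monic hirr ?_ hmon).symm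
    exact LinearMap.ext fun z => by rw [aeval_xMul, hann, LinearMap.zero_apply]
  have hcp : (xMul (F := F) S).charpoly = f := by
    refine (Polynomial.eq_of_monic_of_associated (LinearMap.charpoly_monic _) hmon ?_)
    refine (Polynomial.associated_of_dvd_of_natDegree_le ?_ (LinearMap.charpoly_monic _).ne_zero
      ?_).symm
    · exact hmin ▸ LinearMap.minpoly_dvd_charpoly _
    · rw [LinearMap.charpoly_natDegree, hdim]
  refine ⟨f, hmon, hirr, ⟨e'⟩, hcp, fun g hg hgi => ?_⟩
  split_ifs with hgf
  · subst hgf
    haveI : Finite S := Module.finite_of_finite F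
    letI := Fintype.ofFinite S
    have hall : Nat.card (Submodule.torsionBy F[X] S f) = Nat.card S :=
      Nat.card_congr (Equiv.subtypeUnivEquiv (p := fun z : S => f • z = 0) hann)
    rw [mul_one, hall,
      Nat.card_eq_fintype_card, Module.card_eq_pow_finrank (K := F), hq, hdim]
  · rw [mul_zero, pow_zero, Nat.card_eq_one_iff_unique]
    refine ⟨⟨fun a b => Subtype.ext ?_⟩, ⟨0⟩⟩
    have hcop : IsCoprime g f := (hgi.coprime_iff_not_dvd).2 fun h =>
      hgf (Polynomial.eq_of_monic_of_associated hg hmon (hgi.associated_of_dvd hirr h))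
    obtain ⟨u, v, huv⟩ := hcop
    have hz : ∀ c : Submodule.torsionBy F[X] S g, (c : S) = 0 := fun c => by
      have h1 : g • (c : S) = 0 := c.2
      rw [← one_smul F[X] (c : S), ← huv, add_smul, mul_smul, mul_smul, h1, hann, smul_zero,
        smul_zero, add_zero]
    rw [hz a, hz b]

include hq in
/-- The Möbius number, the characteristic polynomial and the torsion of a semisimple module. -/
theorem semisimple_data (k : ℕ) : ∀ (M : Type*) [AddCommGroup M] [Module F M] [Module F[X] M]
    [IsScalarTower F F[X] M] [FiniteDimensional F M] [IsSemisimpleModule F[X] M]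
    [Finite (Submodule F[X] M)],
    Module.finrank F M = k →
    ∃ s : Multiset F[X], (∀ f ∈ s, f.Monic ∧ Irreducible f) ∧
      s.prod = (xMul (F := F) M).charpoly ∧
      (∀ g : F[X], g.Monic → Irreducible g →
        Nat.card (Submodule.torsionBy F[X] M g) = q ^ (g.natDegree * s.count g)) ∧
      muTop (⊥ : Submodule F[X] M) = polyValue q s := by
  induction k using Nat.strong_induction_on with
  | _ k ih => ?_
  intro M _ _ _ _ _ _ _ hk
  classical
  rcases eq_top_or_exists_le_coatom (⊥ : Submodule F[X] M) with hbot | ⟨N, hN, -⟩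
  · haveI : Subsingleton M := ⟨fun a b => by
      have : ∀ c : M, c = 0 := fun c => (Submodule.mem_bot F[X]).1 (hbot ▸ Submodule.mem_top)
      rw [this a, this b]⟩
    refine ⟨0, by simp, ?_, fun g _ _ => ?_, ?_⟩
    · refine (Polynomial.eq_one_of_monic_natDegree_zero (LinearMap.charpoly_monic _) ?_).symm
      rw [LinearMap.charpoly_natDegree]
      exact Module.finrank_zero_of_subsingleton
    · simp
    · rw [hbot, muTop_top]
      simp [polyValue]
  · obtain ⟨S, hS⟩ := exists_isCompl N
    letI := Fintype.ofFinite (Submodule F[X] M)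
    haveI : IsSimpleModule F[X] (M ⧸ N) := isSimpleModule_iff_isCoatom.2 hN
    haveI : IsSimpleModule F[X] S := IsSimpleModule.congr (Submodule.quotientEquivOfIsCompl N S hS).symm
    haveI : FiniteDimensional F N :=
      Module.Finite.of_injective (N.subtype.restrictScalars F) Subtype.val_injective
    haveI : FiniteDimensional F S :=
      Module.Finite.of_injective (S.subtype.restrictScalars F) Subtype.val_injective
    obtain ⟨f, hfm, hfi, ⟨e⟩, hfc, hft⟩ := simple_data hq (S := S)
    let P : (N × S) ≃ₗ[F[X]] M := Submodule.prodEquivOfIsCompl N S hS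
    have hSpos : 0 < Module.finrank F S :=
      Module.finrank_pos_iff.2 (IsSimpleModule.nontrivial F[X] S)
    have hdim : Module.finrank F N + Module.finrank F S = k := by
      rw [← Module.finrank_prod, ← hk]
      exact (P.restrictScalars F).finrank_eq
    haveI : Finite N := Module.finite_of_finite F
    haveI : Finite (Submodule F[X] N) := Finite.of_injective _ SetLike.coe_injective
    obtain ⟨s, hs, hsp, hst, hsm⟩ := ih (Module.finrank F N) (by omega) N rfl
    refine ⟨f ::ₘ s, Multiset.forall_mem_cons.2 ⟨⟨hfm, hfi⟩, hs⟩, ?_, fun g hg hgi => ?_, ?_⟩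
    · rw [Multiset.prod_cons, hsp, ← hfc, mul_comm, ← LinearMap.charpoly_prodMap,
        ← LinearEquiv.charpoly_conj (P.restrictScalars F)]
      congr 1
      refine LinearMap.ext fun m => ?_
      obtain ⟨z, rfl⟩ := P.surjective m
      rw [LinearEquiv.conj_apply_apply]
      have hz : (P.restrictScalars F).symm (P z) = z := P.symm_apply_apply z
      rw [hz]
      change P (LinearMap.prodMap _ _ z) = (X : F[X]) • P z
      rw [← map_smul]
      rfl
    · let T : Submodule.torsionBy F[X] M g ≃
          (Submodule.torsionBy F[X] N g) × (Submodule.torsionBy F[X] S g) :=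
        (P.symm.toEquiv.subtypeEquiv (q := fun z => g • z.1 = 0 ∧ g • z.2 = 0) fun m => by
          rw [Submodule.mem_torsionBy_iff, ← P.symm.map_eq_zero_iff, map_smul, Prod.ext_iff]
          rfl).trans (Equiv.subtypeProdEquivProd (p := fun a : N => g • a = 0)
            (q := fun b : S => g • b = 0))
      rw [Nat.card_congr T, Nat.card_prod, hst g hg hgi, hft g hg hgi, ← pow_add, Multiset.count_cons,
        mul_add]
    · rw [muTop_bot_of_isCoatom hN, polyValue_cons]
      have hval : ∀ x ∈ Finset.univ.filter (fun x => IsCompl N x),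
          muTop x = muTop (⊥ : Submodule F[X] N) := by
        intro x hx
        simp only [Finset.mem_filter, Finset.mem_univ, true_and] at hx
        haveI : Finite M := Module.finite_of_finite F
        haveI : Finite (M ⧸ x) := Quotient.finite _
        haveI : Finite (Submodule F[X] (M ⧸ x)) := Finite.of_injective _ SetLike.coe_injective
        have h1 := muTop_orderIso (Submodule.comapMkQRelIso x) (⊥ : Submodule F[X] (M ⧸ x))
        have h2 := muTop_orderIso (Submodule.orderIsoMapComap
          (Submodule.quotientEquivOfIsCompl x N hx.symm)) (⊥ : Submodule F[X] (M ⧸ x))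
        rw [muTop_Ici] at h1
        rw [OrderIso.map_bot] at h2
        rw [h2, ← h1]
        congr 1
        change x = Submodule.comap x.mkQ ⊥
        rw [Submodule.comap_bot, Submodule.ker_mkQ]
      rw [Finset.sum_congr rfl hval, Finset.sum_const, nsmul_eq_mul, hsm, neg_mul]
      congr 2
      rw [← Nat.cast_pow]
      congr 1
      rw [← hst f hfm hfi, ← Fintype.card_subtype, ← Nat.card_eq_fintype_card]
      refine Nat.card_congr (((Submodule.isComplEquivProj N).trans ?_).trans
        ((LinearEquiv.arrowCongr e (LinearEquiv.refl F[X] N)).toEquiv.trans (quotientHomEquiv f)))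
      exact {
        toFun := fun φ => φ.1.comp S.subtype
        invFun := fun φ => ⟨LinearMap.ofIsCompl hS LinearMap.id φ, fun a =>
          LinearMap.ofIsCompl_apply_left hS a⟩
        left_inv := fun φ => Subtype.ext (LinearMap.ofIsCompl_eq hS
          (fun a => (φ.2 a).symm) (fun _ => rfl))
        right_inv := fun φ => LinearMap.ext fun b => LinearMap.ofIsCompl_apply_right hS b }

end CfsgLib.ClassK.SteinbergValue
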